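import Cfsg.Agent.Lib.Helper37.Suzuki.Multiplier

/-!
# Stem extensions of `Sz(q)`, `q ≥ 32`, are trivial
-/

set_option autoImplicit false

namespace Cfsg.Agent.Lib.Helper37.Suz

open scoped commutatorElement
open Cfsg.Agent.Lib.Helper37.CentralExt

variable {F : Type*} [Field F] [Fintype F] (m : ℕ) [SzField F m]

theorem ker_eq_bot_of_stem (hm2 : 2 ≤ m) {Γ : Type*} [Group Γ] [Finite Γ] (σ : Γ →* Cfsg.Sz F m)
    (hs : Function.Surjective σ) (hc : σ.ker ≤ Subgroup.center Γ) (hd : σ.ker ≤ commutator Γ) :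
    σ.ker = ⊥ := by
  have : Finite (Cfsg.Sz F m) := Finite.of_surjective σ hs
  rw [Subgroup.eq_bot_iff_forall]
  intro z hz
  have h2 : z ^ ((Qsub F m).index * (Fintype.card F - 1)) = 1 := by
    have h := pow_index_mem_commutator ((Qsub F m).comap σ) (hc hz) (hd hz)
    rw [Subgroup.index_comap_of_surjective _ hs] at h
    have := pow_eq_one_of_mem_ker_two m hm2 σ hs hc (Subgroup.pow_mem _ hz _) h
    rwa [← pow_mul] at this
  have hodd : ∀ (p : ℕ) [Fact p.Prime], p ≠ 2 → ∀ P : Sylow p (Cfsg.Sz F m),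
      z ^ (P : Subgroup (Cfsg.Sz F m)).index = 1 := by
    intro p _ hp P
    have h := pow_index_mem_commutator ((P : Subgroup (Cfsg.Sz F m)).comap σ) (hc hz) (hd hz)
    rw [Subgroup.index_comap_of_surjective _ hs] at h
    have hcyc : IsCyclic (P : Subgroup (Cfsg.Sz F m)) := sylow_odd_cyclic m hp P
    have hcomm := MonoidHom.isMulCommutative_of_isCyclic_of_ker_le_center
      (σ.subgroupComap (P : Subgroup (Cfsg.Sz F m))) (by
        intro x hx
        rw [Subgroup.mem_center_iff]
        intro y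
        apply Subtype.ext
        have hx1 : (x : Γ) ∈ σ.ker := by
          rw [MonoidHom.mem_ker] at hx ⊢
          exact congrArg Subtype.val hx
        exact Subgroup.mem_center_iff.1 (hc hx1) y)
    have hbot : ⁅(P : Subgroup (Cfsg.Sz F m)).comap σ, (P : Subgroup (Cfsg.Sz F m)).comap σ⁆ = ⊥ := by
      rw [Subgroup.commutator_eq_bot_iff_le_centralizer]
      intro u hu
      rw [Subgroup.mem_centralizer_iff]
      intro v hv
      exact congrArg Subtype.val (hcomm.is_comm.comm ⟨v, hv⟩ ⟨u, hu⟩)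
    rw [hbot] at h
    exact Subgroup.mem_bot.1 h
  by_contra hz1
  have hord : orderOf z ≠ 1 := fun h => hz1 (orderOf_eq_one_iff.1 h)
  obtain ⟨r, hr, hrz⟩ := Nat.exists_prime_and_dvd hord
  have : Fact r.Prime := ⟨hr⟩
  by_cases hr2 : r = 2
  · subst hr2
    have h3 := hrz.trans (orderOf_dvd_of_pow_eq_one h2)
    rcases (Nat.Prime.dvd_mul hr).1 h3 with h4 | h4
    · have := (QSylow F m).not_dvd_index
      rw [coe_QSylow] at this
      exact this h4
    · rw [SzField.card (F := F) (m := m), pow_succ] at h4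
      have : 0 < 2 ^ (2 * m) := by positivity
      omega
  · obtain ⟨P⟩ : Nonempty (Sylow r (Cfsg.Sz F m)) := inferInstance
    exact P.not_dvd_index (hrz.trans (orderOf_dvd_of_pow_eq_one (hodd r hr2 P)))

end Cfsg.Agent.Lib.Helper37.Suz
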