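import Cfsg.Agent.Lib.Helper37.Suzuki.Rigid3
import Cfsg.Agent.Lib.Helper37.Suzuki.LieModel
import Cfsg.Prelude.Def_KGroupFacts

/-!
# The outer automorphism group of the Suzuki groups
-/

set_option autoImplicit false

namespace Cfsg.Agent.Lib.Helper37.Suz

open Matrix
open scoped LinearAlgebra.Projectivization

/-- `Out` is invariant under isomorphism. -/
theorem nonempty_Out_congr {E : Type*} {E' : Type*} [Group E] [Group E'] (e : E ≃* E') :
    Nonempty (Cfsg.Out E ≃* Cfsg.Out E') := by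
  refine ⟨QuotientGroup.congr (Cfsg.Inn E) (Cfsg.Inn E') (MulAut.congr e) ?_⟩
  ext φ
  constructor
  · rintro ⟨_, ⟨a, rfl⟩, rfl⟩
    refine ⟨e a, ?_⟩
    ext x
    simp [MulAut.congr, MulAut.conj_apply]
  · rintro ⟨a, rfl⟩
    refine ⟨MulAut.conj (e.symm a), ⟨e.symm a, rfl⟩, ?_⟩
    ext x
    simp [MulAut.congr, MulAut.conj_apply]

variable {K : Type*} [Field K] [Fintype K] {k : ℕ} [SzField K k]
variable {F : Type*} [Field F] [Fintype F] {m : ℕ} [SzField F m]

/-- conjugate standard embeddings come from the same field embedding -/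
theorem eq_of_szMap_conj (ι₁ ι₂ : K →+* F) (h₁ : Compat k m ι₁) (h₂ : Compat k m ι₂)
    (g : Cfsg.Sz F m) (hg : ∀ x, szMap ι₂ h₂ x = g * szMap ι₁ h₁ x * g⁻¹) : ι₁ = ι₂ := by
  have hF2 := charTwo (F := F) m
  have hT : ∀ a b, T m (ι₂ a) (ι₂ b) = g.1 * T m (ι₁ a) (ι₁ b) * g.1⁻¹ := by
    intro a b
    have := hg (TS k a b)
    rw [szMap_TS, szMap_TS] at this
    exact congrArg Subtype.val this
  have hH : ∀ l, hh m (Units.map (ι₂ : K →* F) l) = g.1 * hh m (Units.map (ι₁ : K →* F) l) * g.1⁻¹ := by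
    intro l
    have := hg (hS k l)
    rw [szMap_hS, szMap_hS] at this
    exact congrArg Subtype.val this
  have hinf : g.1 • (inf : ℙ F (Fin 4 → F)) = inf := by
    apply T_fix m (a := ι₂ 1) (b := ι₂ 0) (by simp) (smul_mem_of_mem_Sz m g.2 (inf_mem m))
    rw [hT, ← mul_smul, inv_mul_cancel_right, mul_smul, T_smul_inf]
  obtain ⟨l0, hl0⟩ := exists_unit_ne_one (F := K) k
  have hτ0 : Units.map (ι₂ : K →* F) l0 ≠ 1 := by
    intro h
    apply hl0
    apply Units.ext
    apply ι₂.injective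
    have := congrArg Units.val h
    simpa using this
  have hzero : g.1 • pt m (0 : F) 0 = pt m 0 0 := by
    have hfix : hh m (Units.map (ι₂ : K →* F) l0) • (g.1 • pt m (0 : F) 0) = g.1 • pt m 0 0 := by
      rw [hH, ← mul_smul, inv_mul_cancel_right, mul_smul, hh_smul_pt]; simp
    rcases (hh_fix_iff m hτ0 (smul_mem_of_mem_Sz m g.2 (pt_mem m 0 0))).1 hfix with h | h
    · exfalso
      rw [← hinf] at h
      exact pt_ne_inf m 0 0 (smul_left_cancel g.1 h)
    · exact h
  obtain ⟨c, hc⟩ := two_point_stab m g.2 hinf hzero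
  have hgc : g = hS m c := Subtype.ext hc
  have h1 := hg (TS k 1 0)
  rw [szMap_TS, szMap_TS, hgc, hS_conj_TS, map_one, map_one] at h1
  have h2 := (TS_injective m h1).1
  rw [mul_one] at h2
  ext a
  have h3 := hg (TS k a 0)
  rw [szMap_TS, szMap_TS, hgc, hS_conj_TS, ← h2, one_mul] at h3
  exact (TS_injective m h3).1.symm

theorem compat_self (ι : F →+* F) : Compat m m ι := fun x => by
  rw [sig_def, sig_def, map_pow]

/-- the automorphism of `Sz(F)` induced by a field automorphism -/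
noncomputable def szAut (τ : F ≃+* F) : MulAut (Cfsg.Sz F m) :=
  MulEquiv.ofBijective (szMap (τ : F →+* F) (compat_self _))
    ((Finite.injective_iff_bijective).1 (szMap_injective _ _))

theorem szAut_apply (τ : F ≃+* F) (x : Cfsg.Sz F m) :
    szAut τ x = szMap (τ : F →+* F) (compat_self _) x := rfl

theorem bijective_szAut_mk :
    Function.Bijective (fun τ : F ≃+* F => (QuotientGroup.mk (szAut τ) : Cfsg.Out (Cfsg.Sz F m))) := by
  constructor
  · intro τ₁ τ₂ h
    obtain ⟨g, hg⟩ := QuotientGroup.eq.1 h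
    have h1 : ∀ x, szAut τ₂ x = szAut τ₁ g * szAut τ₁ x * (szAut τ₁ g)⁻¹ := by
      intro x
      have := congrArg (fun φ : MulAut (Cfsg.Sz F m) => szAut τ₁ (φ x)) hg
      simp only [MulAut.conj_apply, MulAut.mul_apply, map_mul, map_inv] at this
      rw [this]
      show szAut τ₂ x = szAut τ₁ ((szAut τ₁).symm (szAut τ₂ x))
      rw [MulEquiv.apply_symm_apply]
    have h2 := eq_of_szMap_conj (τ₁ : F →+* F) (τ₂ : F →+* F) (compat_self _) (compat_self _) _ h1
    ext a
    exact RingHom.congr_fun h2 a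
  · intro q
    obtain ⟨φ, rfl⟩ := QuotientGroup.mk_surjective q
    obtain ⟨ι, hι, g, hg⟩ := rigid compat_self φ.toMonoidHom φ.injective
    let τ : F ≃+* F := RingEquiv.ofBijective ι ((Finite.injective_iff_bijective).1 ι.injective)
    refine ⟨τ, ?_⟩
    apply QuotientGroup.eq.2
    refine ⟨(szAut τ).symm g, ?_⟩
    ext1 x
    apply (szAut τ).injective
    show szAut τ ((szAut τ).symm g * x * ((szAut τ).symm g)⁻¹) = szAut τ ((szAut τ).symm (φ x))
    rw [map_mul, map_mul, map_inv, MulEquiv.apply_symm_apply, MulEquiv.apply_symm_apply]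
    exact (hg x).symm

include m in
theorem card_ringAut : Nat.card (F ≃+* F) = 2 * m + 1 := by
  have hF2 := charTwo (F := F) m
  have : Fact (Nat.Prime 2) := ⟨Nat.prime_two⟩
  let _ : Algebra (ZMod 2) F := ZMod.algebra _ _
  have h2 : Module.finrank (ZMod 2) F = 2 * m + 1 := by
    have := FiniteField.pow_finrank_eq_card 2 F
    rw [SzField.card (F := F) (m := m)] at this
    exact Nat.pow_right_injective (le_refl 2) this
  rw [← h2, ← IsGalois.card_aut_eq_finrank (ZMod 2) F]
  apply Nat.card_congr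
  exact
    { toFun := fun e => AlgEquiv.ofRingEquiv (f := e) (fun r =>
        RingHom.congr_fun (Subsingleton.elim ((e : F →+* F).comp (algebraMap (ZMod 2) F))
          (algebraMap (ZMod 2) F)) r)
      invFun := fun e => e.toRingEquiv
      left_inv := fun e => by ext; rfl
      right_inv := fun e => by ext; rfl }

theorem card_Out_Sz : Nat.card (Cfsg.Out (Cfsg.Sz F m)) = 2 * m + 1 := by
  rw [← card_ringAut (F := F) (m := m)]
  exact (Nat.card_eq_of_bijective _ bijective_szAut_mk).symm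

theorem card_Out_LieSz : Nat.card (Cfsg.Out ↥(Cfsg.Lie.Sz F (2 ^ (m + 1)))) = 2 * m + 1 := by
  obtain ⟨e⟩ := nonempty_Out_congr (lieEquiv (F := F) m)
  rw [← Nat.card_congr e.toEquiv, card_Out_Sz]

end Cfsg.Agent.Lib.Helper37.Suz
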