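import Cfsg.Agent.Lib.Helper37.Suzuki.Borel

/-!
# Generation results
-/

set_option autoImplicit false

namespace Cfsg.Agent.Lib.Helper37.Suz

open Matrix
open scoped LinearAlgebra.Projectivization Pointwise

variable {F : Type*} [Field F] [Fintype F] (m : ℕ) [SzField F m]

theorem T_comm (a b c d : F) :
    T m a b * T m c d * (T m a b)⁻¹ * (T m c d)⁻¹ = T m 0 (sig m a * c + sig m c * a) := by
  have := congrArg (fun x : Qsub F m => (x : Cfsg.Sz F m).1) (TQ_comm m a b c d)
  exact this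

/-- every element of the centre of `Q` is a commutator -/
theorem exists_comm_center (e : F) : ∃ a c : F, sig m a * c + sig m c * a = e := by
  have hchar := charTwo (F := F) m
  obtain ⟨z, hz0, hz1⟩ := exists_ne_zero_one (F := F) m
  have hu : z + sig m z ≠ 0 := by
    intro h
    have h3 : sig m z = z := (CharTwo.add_eq_zero.1 h).symm
    rcases (sig_eq_self_iff m z).1 h3 with h | h
    · exact hz0 h
    · exact hz1 h
  obtain ⟨a, ha⟩ := sig_mul_self_surjective m (e / (z + sig m z))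
  simp only at ha
  refine ⟨a, a * z, ?_⟩
  rw [sig_mul]
  have : sig m a * (a * z) + sig m a * sig m z * a = (sig m a * a) * (z + sig m z) := by ring
  rw [this, ha]
  field_simp

/-- A subgroup containing the torus and a translation `T a b` with `a ≠ 0` contains `Q`. -/
theorem Q_le_of_torus (M : Subgroup (Matrix.SpecialLinearGroup (Fin 4) F)) (hH : ∀ k : Fˣ, hh m k ∈ M)
    {a b : F} (ha : a ≠ 0) (hab : T m a b ∈ M) : ∀ c d : F, T m c d ∈ M := by
  have hchar := charTwo (F := F) m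
  have h1 : ∀ c : F, ∃ d : F, T m c d ∈ M := by
    intro c
    by_cases hc : c = 0
    · subst hc
      exact ⟨0, by rw [T_zero]; exact one_mem _⟩
    · let k : Fˣ := Units.mk0 (c / a) (div_ne_zero hc ha)
      refine ⟨sig m (k : F) * k * b, ?_⟩
      have h2 := hh_conj_T m k a b
      have h3 : (k : F) * a = c := by
        show c / a * a = c
        field_simp
      rw [h3] at h2
      rw [← h2]
      exact mul_mem (mul_mem (hH k) hab) (inv_mem (hH k))
  have h2 : ∀ e : F, T m 0 e ∈ M := by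
    intro e
    obtain ⟨a', c', rfl⟩ := exists_comm_center m e
    obtain ⟨b', hb'⟩ := h1 a'
    obtain ⟨d', hd'⟩ := h1 c'
    rw [← T_comm m a' b' c' d']
    exact mul_mem (mul_mem (mul_mem hb' hd') (inv_mem hb')) (inv_mem hd')
  intro c d
  obtain ⟨d', hd'⟩ := h1 c
  have : T m c d = T m c d' * T m 0 (d' + d) := by
    rw [T_mul]
    congr 1
    · simp
    · rw [mul_zero, add_zero, ← add_assoc, add_self', zero_add]
  rw [this]
  exact mul_mem hd' (h2 _)

theorem two_generated : ∃ a b : Cfsg.Sz F m, Subgroup.closure ({a, b} : Set (Cfsg.Sz F m)) = ⊤ := by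
  have hchar := charTwo (F := F) m
  obtain ⟨ζ, hζ⟩ := IsCyclic.exists_generator (α := Fˣ)
  have hζ1 : ζ ≠ 1 := by
    rintro rfl
    obtain ⟨k, hk⟩ := exists_unit_ne_one (F := F) m
    apply hk
    obtain ⟨n, hn⟩ := Subgroup.mem_zpowers_iff.1 (hζ k)
    rw [← hn, _root_.one_zpow]
  refine ⟨hS m ζ, TS m 1 0 * wS m, ?_⟩
  set M0 := Subgroup.closure ({hS m ζ, TS m 1 0 * wS m} : Set (Cfsg.Sz F m)) with hM0
  set M := M0.map (Cfsg.Sz F m).subtype with hM
  have ha : hh m ζ ∈ M := ⟨hS m ζ, Subgroup.subset_closure (by simp), rfl⟩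
  have hb : T m 1 0 * w ∈ M := ⟨TS m 1 0 * wS m, Subgroup.subset_closure (by simp), rfl⟩
  have hH : ∀ k : Fˣ, hh m k ∈ M := by
    intro k
    obtain ⟨n, hn⟩ := Subgroup.mem_zpowers_iff.1 (hζ k)
    rw [← hn]
    have : hh m (ζ ^ n) = (hh m ζ) ^ n := (hhHom F m).map_zpow ζ n
    rw [this]
    exact zpow_mem ha n
  have hu : T m ((ζ : F) + 1) (1 + sig m (ζ : F)) ∈ M := by
    have e1 : T m ((ζ : F) + 1) (1 + sig m (ζ : F)) =
        hh m ζ * ((T m 1 0 * w) * hh m ζ * (T m 1 0 * w)⁻¹) := by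
      have e2 : (T m (1 : F) 0 * w) * hh m ζ * (T m 1 0 * w)⁻¹ = T m 1 0 * hh m ζ⁻¹ * (T m 1 0)⁻¹ := by
        rw [_root_.mul_inv_rev, w_inv]
        have : (w : Matrix.SpecialLinearGroup (Fin 4) F) * hh m ζ * w = hh m ζ⁻¹ := by
          rw [w_mul_hh, mul_assoc, w_mul_w, mul_one]
        calc T m (1 : F) 0 * w * hh m ζ * (w * (T m 1 0)⁻¹) = T m 1 0 * (w * hh m ζ * w) * (T m 1 0)⁻¹ := by
              simp only [mul_assoc]
          _ = _ := by rw [this]
      rw [e2]
      have e3 : hh m ζ * (T m (1 : F) 0 * hh m ζ⁻¹ * (T m 1 0)⁻¹) =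
          (hh m ζ * T m 1 0 * (hh m ζ)⁻¹) * (T m 1 0)⁻¹ := by
        rw [hh_inv]; simp only [mul_assoc]
      rw [e3, hh_conj_T, T_inv, T_mul]
      congr 1
      · simp
      · simp [sig_mul]
    rw [e1]
    exact mul_mem ha (mul_mem (mul_mem hb ha) (inv_mem hb))
  have hQ := Q_le_of_torus m M hH (unit_add_one_ne_zero m hζ1) hu
  have hw : (w : Matrix.SpecialLinearGroup (Fin 4) F) ∈ M := by
    have := mul_mem (inv_mem (hQ 1 0)) hb
    rwa [inv_mul_cancel_left] at this
  rw [eq_top_iff]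
  intro y _
  have hy : y.1 ∈ M := by
    rcases normal_form m y.2 with ⟨a, b, k, h⟩ | ⟨a, b, c, d, k, h⟩
    · rw [h]; exact mul_mem (hQ a b) (hH k)
    · rw [h]; exact mul_mem (mul_mem (hQ a b) hw) (mul_mem (hQ c d) (hH k))
  obtain ⟨z, hz, hzy⟩ := hy
  have : z = y := Subtype.ext hzy
  rwa [← this]

end Cfsg.Agent.Lib.Helper37.Suz
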